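import Mathlib
import Cfsg.Agent.Lib.Block.Defic

/-!
# Flat blocks (Brauer): kernels of blocks along Brauer pairs
-/

set_option autoImplicit false

namespace CfsgLib.Block

open Cfsg CfsgLib.Char CfsgLib.BrPair MonoidAlgebra

attribute [local implicit_reducible] CfsgLib.Block.K

variable {G : Type*} [Group G] [Finite G] {p : ℕ} {M : Ideal AlgInt}

section Alg

variable {R : Type*} [CommRing R]

/-- The elements of `N` act trivially on `f`. -/
def Abs (N : Subgroup G) (f : R[G]) : Prop := ∀ n ∈ N, single n 1 * f = f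

open Classical in
/-- The sum of the elements of `N`. -/
noncomputable def ind (R : Type*) [CommRing R] (N : Subgroup G) : R[G] :=
  BrPair.ofFun fun g => if g ∈ N then 1 else 0

open Classical in
theorem coeff_ind (N : Subgroup G) (g : G) : (ind R N).coeff g = if g ∈ N then 1 else 0 := rfl

theorem abs_ind (N : Subgroup G) : Abs N (ind R N) := fun n hn => ext' fun x => by
  rw [coeff_single_mul_apply, one_mul, coeff_ind, coeff_ind,
    propext (N.mul_mem_cancel_left (N.inv_mem hn))]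

theorem Abs.ind_mul {N : Subgroup G} {f : R[G]} (h : Abs N f) :
    ind R N * f = (Nat.card N : R) • f := by
  classical
  have := Fintype.ofFinite G
  refine ext' fun x => ?_
  rw [coeff_mul_left, Finset.sum_congr rfl (g := fun y => if y ∈ N then f.coeff x else 0),
    ← Finset.sum_filter, Finset.sum_const, Nat.card_eq_fintype_card, Fintype.card_subtype]
  · simp
  · intro y _
    rw [coeff_ind]
    split_ifs with hy
    · simpa using congrArg (fun a : R[G] => a.coeff x) (h y hy)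
    · simp

theorem ind_mem {N H C : Subgroup G} (h1 : N ≤ C) (h2 : H ≤ Nz N) : ind R N ∈ fixSub R H C :=
  mem_fixSub.2 ⟨fun x hx => by rw [coeff_ind, if_neg fun h => hx (h1 h)],
    fixed_iff.2 fun n hn x => by
      rw [coeff_ind, coeff_ind, propext (mem_Nz.1 (h2 hn) x)]⟩

theorem br_ind (N Q : Subgroup G) : br Q (ind R N) = ind R (N ⊓ Cz Q) := ext' fun x => by
  classical
  rw [coeff_trunc, coeff_ind, coeff_ind]
  by_cases h : x ∈ Cz Q <;> simp [h]

omit [Finite G] in
theorem Abs.mul {N : Subgroup G} {a e : R[G]} (h : Abs N a) (he : a * e = e) : Abs N e :=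
  fun n hn => by rw [← he, ← mul_assoc, h n hn]

theorem single_mul_of_br {Q : Subgroup G} {a g : R[G]} (h : br Q a * g = g) {x : G} (hx : x ∈ Cz Q)
    (ha : single x 1 * a = a) : single x 1 * g = g := by
  rw [← h, ← mul_assoc, ← trunc_mul_left (supp_single hx 1), ha]

omit [Finite G] in
theorem single_mul_cj {f : R[G]} {x y : G} :
    single (x * y * x⁻¹) 1 * cj x f = cj x f ↔ single y 1 * f = f := by
  rw [← cj_single, ← map_mul, (cj x).injective.eq_iff]

end Alg

section Field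

variable {k : Type*} [Field k] [Fact p.Prime] [CharP k p]

theorem abs_of_br {S : Subalgebra k k[G]} {N Q : Subgroup G} {a g : k[G]} (ha : IsPrim S a)
    (hN : ind k N ∈ S) (hp : ¬ p ∣ Nat.card N) (hQ : IsPGroup p Q) (hQa : Fixed Q a)
    (hQN : Q ≤ Nz N) (h : br Q a * g = g) (hg : g ≠ 0) (hA : Abs (N ⊓ Cz Q) g) : Abs N a := by
  have h0 : (Nat.card N : k) ≠ 0 := by rwa [Ne, CharP.cast_eq_zero_iff k p]
  have h1 : (Nat.card (N ⊓ Cz Q : Subgroup G) : k) ≠ 0 := by
    rw [Ne, CharP.cast_eq_zero_iff k p]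
    exact fun h => hp (h.trans (Subgroup.card_dvd_of_le inf_le_left))
  have h2 : ind k N * a ≠ 0 := fun h2 => smul_ne_zero h1 hg (by
    rw [← hA.ind_mul, ← h, ← mul_assoc, ← br_ind,
      ← br_mul hQ (ind_mem (C := N) le_rfl hQN).2 hQa, h2, map_zero, zero_mul])
  refine Abs.mul (a := (Nat.card N : k)⁻¹ • ind k N) (fun n hn => by
    rw [mul_smul_comm, abs_ind N n hn]) (ha.mul_eq_of_ne (S.smul_mem hN _) ?_ ?_)
  · rw [IsIdempotentElem, smul_mul_smul_comm, (abs_ind N).ind_mul, smul_smul,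
      inv_mul_cancel_right₀ h0]
  · rw [smul_mul_assoc]; exact smul_ne_zero (inv_ne_zero h0) h2

/-- All normal `Q`-subgroups of `H` act trivially on `f`. -/
def Flat (Q : ℕ → Prop) (H : Subgroup G) (f : k[G]) : Prop :=
  ∀ N ≤ H, H ≤ Nz N → Q (Nat.card N) → Abs N f

variable {Qc : ℕ → Prop}

omit [Finite G] [Fact p.Prime] [CharP k p] in
theorem flat_of_core {H : Subgroup G} {f : k[G]}
    (h : Abs ((Core.ordCore Qc H).map H.subtype) f) : Flat Qc H f :=
  fun _ h1 h2 h3 n hn => h n (Core.le_map_ordCore h1 h2 h3 hn)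

omit [Finite G] [Fact p.Prime] [CharP k p] in
theorem Flat.of_cj {H : Subgroup G} {f : k[G]} {x : G} (h : Flat Qc (cS x H) (cj x f)) :
    Flat Qc H f := fun N h1 h2 h3 n hn => single_mul_cj.1 (h (cS x N) (cS_mono x h1)
      (Nz_cS x N ▸ cS_mono x h2) (card_cS x N ▸ h3) _ ⟨n, hn, rfl⟩)

theorem Flat.of_br (hQc : Core.IsOrdClass Qc) (hp : ∀ n, Qc n → ¬ p ∣ n) {H L Q : Subgroup G}
    {a g : k[G]} (ha : IsBlk L a) (hL : L = H) (hQ : IsPGroup p Q) (hQa : Fixed Q a)
    (hQH : Q ≤ Nz H) (hC : Cz Q ≤ H) (h : br Q a * g = g) (hg : g ≠ 0) (hA : Flat Qc (Cz Q) g) :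
    Flat Qc H a := by
  subst hL
  have h1 := hQc.normalizer_le_normalizer_map_ordCore L
  have h2 := hQc.card_map_ordCore L
  exact flat_of_core (abs_of_br ha (ind_mem (Subgroup.map_subtype_le _)
    (Subgroup.le_normalizer.trans h1)) (hp _ h2) hQ hQa (hQH.trans h1) h hg
    (hA _ inf_le_right ((le_inf (hC.trans (Subgroup.le_normalizer.trans h1))
      Subgroup.le_normalizer).trans (inf_Nz_le_Nz_inf _ _))
      (hQc.of_dvd (Subgroup.card_dvd_of_le inf_le_left) h2)))

theorem Flat.of_subLE (hQc : Core.IsOrdClass Qc) (hp : ∀ n, Qc n → ¬ p ∣ n) {P Q : Subgroup G}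
    {e f : k[G]} (h : SubLE p ⊤ Q f P e) (he : Flat Qc (Cz P) e) : Flat Qc (Cz Q) f :=
  h.head_induction (motive := fun Q f => Flat Qc (Cz Q) f) he fun Q _ _ _ h _ hg =>
    hg.of_br hQc hp h.blk_left (top_inf_eq _) h.pgroup h.fixed (h.norm.trans (Nz_le_Nz_Cz Q))
      (Cz_anti h.le) h.br_mul h.blk_right.ne

theorem single_mul_of_subLE {P Q : Subgroup G} {e f : k[G]} (h : SubLE p ⊤ Q f P e) {x : G}
    (hx : x ∈ Cz P) : single x 1 * f = f → single x 1 * e = e :=
  h.head_induction (motive := fun _ f => single x 1 * f = f → single x 1 * e = e) id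
    fun _ _ _ _ h h' ih hf => ih (single_mul_of_br h.br_mul (Cz_anti h'.le hx) hf)

end Field

theorem single_mul_sB (hM : IsPModular p M) {H : Subgroup G} {b : Set (IrrCharacter H)} {n : H}
    (h : n ∈ blockKer b) : single (n : G) 1 * sB hM H b = sB hM H b := by
  refine ext' fun x => ?_
  rw [coeff_single_mul_apply, one_mul, coeff_sB, coeff_sB]
  congr 1
  by_cases hx : x ∈ H
  · rw [subgroupBlockCoeff, subgroupBlockCoeff, dif_pos hx, dif_pos (H.mul_mem (H.inv_mem n.2) hx),
      blockCoeff, blockCoeff]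
    congr 1
    refine finsum_mem_congr rfl fun θ hθ => ?_
    rw [← char_mul_of_eq_one (irr_isCharacter θ) (h θ hθ) ⟨(n : G)⁻¹ * x, _⟩,
      show n * ⟨(n : G)⁻¹ * x, _⟩ = ⟨x, hx⟩ from Subtype.ext (by simp)]
  · rw [subgroupBlockCoeff, subgroupBlockCoeff, dif_neg hx,
      dif_neg fun h => hx ((H.mul_mem_cancel_left (H.inv_mem n.2)).1 h)]

theorem mem_blockKer_of_abs (hM : IsPModular p M) {H : Subgroup G} {b : Set (IrrCharacter H)}
    (hb : IsPBlock M b) {N : Subgroup H} [hN : N.Normal] (hp : ¬ p ∣ Nat.card N)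
    (h : Abs (N.map H.subtype) (sB hM H b)) {n : H} (hn : n ∈ N) : n ∈ blockKer b := by
  classical
  have := Fact.mk hM.1
  have := Fintype.ofFinite H
  intro θ hθ
  refine (Cover.over_irrOne_iff N θ).1 (fun h0 => ?_) n hn
  have hH : H ≤ Nz (N.map H.subtype) := by
    have := Subgroup.le_normalizer_map (H := N) H.subtype
    rwa [Subgroup.normalizer_eq_top N, ← MonoidHom.range_eq_map, Subgroup.range_subtype] at this
  have hm := fun (R : Type) [CommRing R] => ind_mem (R := R) (Subgroup.map_subtype_le N) hH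
  have hO : ind ℂ (N.map H.subtype) ∈ OG hM G := fun g => lr_ite hM fun _ => lr_one hM
  have h1 := (isNilpotent_trunc_mul_sB_iff hM (hm (K hM)).2 hb hθ).2 (by
    rw [show ind (K hM) (N.map H.subtype) = redA hM (ind ℂ (N.map H.subtype)) from ext' fun x => by
      rw [coeff_redA, coeff_ind, coeff_ind]; split_ifs <;> simp [red_one, red_zero],
      ← Block.redA_res, lam_redA hM θ.2 (hm ℂ).2.res_subtype_mem_Z (res_mem_OG hM H hO),
      omega_apply, chiA_apply]
    rw [irrOne_coe, classInner_one_right, mul_eq_zero, inv_eq_zero, or_iff_right natCard_ne_zero,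
      ← Finset.sum_subtype (Finset.univ.filter (· ∈ N)) (by simp), Finset.sum_filter] at h0
    simp [coeff_ind, h0, red_zero])
  rw [(hm (K hM)).1.trunc_eq, h.ind_mul, Subgroup.card_map_of_injective H.subtype_injective] at h1
  refine (isBlk_sB hM hb).not_nilpotent ?_
  have := h1.smul (Nat.card N : K hM)⁻¹
  rwa [smul_smul, inv_mul_cancel₀ ((CharP.cast_eq_zero_iff (K hM) p _).not.2 hp), one_smul] at this

variable {Qc : ℕ → Prop}

theorem Flat.mem_blockKer (hM : IsPModular p M) (hQc : Core.IsOrdClass Qc)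
    (hp : ∀ n, Qc n → ¬ p ∣ n) {H : Subgroup G} {b : Set (IrrCharacter H)} (hb : IsPBlock M b)
    (h : Flat Qc H (sB hM H b)) {n : H} (hn : n ∈ Core.ordCore Qc H) : n ∈ blockKer b :=
  haveI := Core.ordCore_normal Qc H
  mem_blockKer_of_abs hM hb (hp _ (hQc.card_ordCore H)) (h _ (Subgroup.map_subtype_le _)
    (Subgroup.le_normalizer.trans (hQc.normalizer_le_normalizer_map_ordCore H))
    (hQc.card_map_ordCore H)) hn

theorem flat_of_isPair (hM : IsPModular p M) (hQc : Core.IsOrdClass Qc) (hp : ∀ n, Qc n → ¬ p ∣ n)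
    {B : Set (IrrCharacter G)} {D : Subgroup G} (hD : IsDefectGroup p M B D)
    {B₁ : Set (IrrCharacter (Nz D))} (hB₁ : IsInducedBlock M (Nz D) B₁ B)
    (hker : ∀ n ∈ Core.ordCore Qc (Nz D), n ∈ blockKer B₁) {Q : Subgroup G} {f : (K hM)[G]}
    (hf : IsPair p ⊤ ⊤ (eB hM B) Q f) : Flat Qc (Cz Q) f := by
  have := Fact.mk hM.1
  have hB := hB₁.2.1
  obtain ⟨e, Me⟩ := exists_maxPair_of_isDef le_rfl top_le_Nz_top (isBlk_eB hM hB)
    ((BrPair.isDefectGroup_iff hM hB).1 hD)
  obtain ⟨x, -, hx⟩ := Me.exists_conj_subLE hf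
  refine Flat.of_cj (x := x) (Cz_cS x Q ▸ Flat.of_subLE hQc hp hx (flat_of_core fun n hn => ?_))
  obtain ⟨m, hm, rfl⟩ := hQc.map_ordCore_le_map_ordCore (Cz_le_Nz D) (Nz_le_Nz_Cz D) hn
  have := Me.pair.br_mul
  rw [br_eB_eq_emb_of_isInducedBlock hM hB₁ hD] at this
  rw [← this, ← mul_assoc]
  exact congrArg (· * e) (single_mul_sB hM (hker m hm))

end CfsgLib.Block
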