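import Mathlib
import Cfsg.Agent.Lib.Blk.Sub
import Cfsg.Agent.Lib.Blk.BF
import Cfsg.Agent.Lib.Star.Lift
import Cfsg.Agent.Lib.BrPair.Dict

/-!
# The Knörr–Robinson alternating sum for `k - l`
-/

namespace CfsgLib.Block

open Cfsg MonoidAlgebra CfsgLib.Char CfsgLib.Blk CfsgLib.Star
open CfsgLib.BrPair (cS Cz Nz br res emb Fixed Supp fixSub mem_cS mem_Nz_iff_cS cB sB IsBlk)
open scoped ComplexConjugate

section Comb

variable {G : Type*} [Group G] [Finite G] {p : ℕ}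

/-- normal chains of nontrivial `p`-subgroups (the empty chain included). -/
def IsNCh (p : ℕ) (σ : Finset (Subgroup G)) : Prop :=
  (∀ Q ∈ σ, ∀ R ∈ σ, Q ≤ R ∨ R ≤ Q) ∧ (∀ Q ∈ σ, Q ≠ ⊥ ∧ IsPGroup p Q) ∧
    ∀ Q ∈ σ, ∀ R ∈ σ, R ≤ Nz Q

/-- the stabilizer of a chain. -/
def stCh (σ : Finset (Subgroup G)) : Subgroup G := ⨅ Q ∈ σ, Nz Q

omit [Finite G] in
theorem mem_stCh {σ : Finset (Subgroup G)} {g : G} : g ∈ stCh σ ↔ ∀ Q ∈ σ, g ∈ Nz Q := by
  simp only [stCh, Subgroup.mem_iInf]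

omit [Finite G] in
theorem sup_mem_of_chain {σ : Finset (Subgroup G)} (hσ : ∀ Q ∈ σ, ∀ R ∈ σ, Q ≤ R ∨ R ≤ Q)
    (hne : σ.Nonempty) : σ.sup id ∈ σ := by
  have := Finset.sup'_mem (σ : Set (Subgroup G)) (fun x hx y hy => by
    rcases hσ x hx y hy with h | h
    · rw [sup_eq_right.2 h]; exact hy
    · rw [sup_eq_left.2 h]; exact hx) σ hne id (fun x hx => hx)
  rwa [Finset.sup'_eq_sup] at this

omit [Finite G] in
theorem sup_eq_bot_or_mem {σ : Finset (Subgroup G)} (hσ : ∀ Q ∈ σ, ∀ R ∈ σ, Q ≤ R ∨ R ≤ Q) :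
    σ.sup id = ⊥ ∨ σ.sup id ∈ σ := by
  rcases σ.eq_empty_or_nonempty with rfl | h
  · exact Or.inl Finset.sup_empty
  · exact Or.inr (sup_mem_of_chain hσ h)

omit [Finite G] in
theorem mem_Nz_bot (g : G) : g ∈ Nz (⊥ : Subgroup G) := mem_Nz_iff_cS.2 (BrPair.cS_bot g)

/-- the normal closure of `u` in `P`. -/
def nclIn (P : Subgroup G) (u : G) : Subgroup G :=
  Subgroup.closure {x | ∃ t ∈ P, t * u * t⁻¹ = x}

omit [Finite G] in
theorem mem_nclIn (P : Subgroup G) (u : G) : u ∈ nclIn P u :=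
  Subgroup.subset_closure ⟨1, P.one_mem, by group⟩

omit [Finite G] in
theorem nclIn_le {P Q : Subgroup G} {u : G} (hu : u ∈ Q) (hP : P ≤ Nz Q) : nclIn P u ≤ Q := by
  rw [nclIn, Subgroup.closure_le]
  rintro x ⟨t, ht, rfl⟩
  exact (BrPair.mem_Nz.1 (hP ht) u).1 hu

omit [Finite G] in
theorem mem_Nz_nclIn_aux {P : Subgroup G} {u g : G}
    (h : ∀ t ∈ P, ∃ s ∈ P, g⁻¹ * (t * u * t⁻¹) * g = s * u * s⁻¹) : nclIn P u ≤ cS g (nclIn P u) := by
  conv_lhs => rw [nclIn]
  rw [Subgroup.closure_le]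
  rintro x ⟨t, ht, rfl⟩
  obtain ⟨s, hs, e⟩ := h t ht
  refine mem_cS.2 ?_
  rw [e]
  exact Subgroup.subset_closure ⟨s, hs, rfl⟩

theorem mem_Nz_nclIn {P : Subgroup G} {u g : G}
    (h : ∀ t ∈ P, ∃ s ∈ P, g⁻¹ * (t * u * t⁻¹) * g = s * u * s⁻¹) : g ∈ Nz (nclIn P u) := by
  rw [mem_Nz_iff_cS]
  exact (Subgroup.eq_of_le_of_card_ge (mem_Nz_nclIn_aux h) (BrPair.card_cS _ _).le).symm

theorem le_Nz_nclIn (P : Subgroup G) (u : G) : P ≤ Nz (nclIn P u) := fun g hg =>
  mem_Nz_nclIn fun t ht => ⟨g⁻¹ * t, P.mul_mem (P.inv_mem hg) ht, by group⟩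

theorem mem_Nz_nclIn_of_comm {P : Subgroup G} {u g : G} (hg : g ∈ Nz P) (hu : g ∈ Cu u) :
    g ∈ Nz (nclIn P u) :=
  mem_Nz_nclIn fun t ht => ⟨g⁻¹ * t * g, by
    have := (BrPair.mem_Nz.1 ((Nz P).inv_mem hg) t).1 ht
    rwa [inv_inv] at this, by
    have h := mem_Cu.1 hu
    calc g⁻¹ * (t * u * t⁻¹) * g = g⁻¹ * t * (u * g) * g⁻¹ * t⁻¹ * g := by group
      _ = _ := by rw [h]; group⟩

theorem eq_of_le_sup_nclIn [Fact p.Prime] {P H L : Subgroup G} {u : G} (hP : IsPGroup p P)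
    (hHP : H ≤ P) (hLH : L ≤ H) (hu : u ∈ H) (h : P ≤ L ⊔ nclIn P u) : P ≤ H := by
  have hnil : Group.IsNilpotent P := hP.isNilpotent
  rcases eq_top_or_exists_le_coatom (H.subgroupOf P) with h1 | ⟨C, hC, hHC⟩
  · exact Subgroup.subgroupOf_eq_top.1 h1
  · exfalso
    have hn : C.Normal :=
      Subgroup.NormalizerCondition.normal_of_coatom C Group.normalizerCondition_of_isNilpotent hC
    have h2 : H ≤ C.map P.subtype := fun x hx => ⟨⟨x, hHP hx⟩, hHC hx, rfl⟩
    have h3 : nclIn P u ≤ C.map P.subtype := by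
      rw [nclIn, Subgroup.closure_le]
      rintro x ⟨t, ht, rfl⟩
      exact ⟨⟨t, ht⟩ * ⟨u, hHP hu⟩ * ⟨t, ht⟩⁻¹, hn.conj_mem _ (hHC hu) _, rfl⟩
    apply hC.1
    rw [eq_top_iff]
    intro x _
    obtain ⟨y, hy, e⟩ := (h.trans (sup_le (hLH.trans h2) h3)) x.2
    rwa [show y = x from Subtype.ext e] at hy

open Classical in
/-- the largest member not containing `u`. -/
noncomputable def lowCh (u : G) (σ : Finset (Subgroup G)) : Subgroup G :=
  (σ.filter fun Q => u ∉ Q).sup id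

/-- the top of the chain joined with `u`. -/
noncomputable def topCh (u : G) (σ : Finset (Subgroup G)) : Subgroup G :=
  σ.sup id ⊔ Subgroup.zpowers u

/-- the subgroup to be toggled. -/
noncomputable def togCh (u : G) (σ : Finset (Subgroup G)) : Subgroup G :=
  lowCh u σ ⊔ nclIn (topCh u σ) u

variable {u : G} {σ : Finset (Subgroup G)}

omit [Finite G] in
theorem le_topCh {Q : Subgroup G} (hQ : Q ∈ σ) : Q ≤ topCh u σ :=
  (Finset.le_sup (f := id) hQ).trans le_sup_left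

omit [Finite G] in
theorem mem_topCh : u ∈ topCh u σ := (le_sup_right : _ ≤ topCh u σ) (Subgroup.mem_zpowers u)

omit [Finite G] in
theorem mem_togCh : u ∈ togCh u σ := (le_sup_right : _ ≤ togCh u σ) (mem_nclIn _ u)

omit [Finite G] in
theorem le_lowCh {Q : Subgroup G} (hQ : Q ∈ σ) (hu : u ∉ Q) : Q ≤ lowCh u σ := by
  classical
  exact Finset.le_sup (f := id) (Finset.mem_filter.2 ⟨hQ, hu⟩)

omit [Finite G] in
theorem lowCh_le {R : Subgroup G} (h : ∀ Q ∈ σ, u ∉ Q → Q ≤ R) : lowCh u σ ≤ R := by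
  classical
  exact Finset.sup_le fun Q hQ => h Q (Finset.mem_filter.1 hQ).1 (Finset.mem_filter.1 hQ).2

omit [Finite G] in
theorem topCh_le {R : Subgroup G} (h : ∀ Q ∈ σ, Q ≤ R) (hu : u ∈ R) : topCh u σ ≤ R :=
  sup_le (Finset.sup_le h) (Subgroup.zpowers_le_of_mem hu)

omit [Finite G] in
theorem togCh_le_topCh : togCh u σ ≤ topCh u σ :=
  sup_le (lowCh_le fun _ hQ _ => le_topCh hQ) (nclIn_le mem_topCh Subgroup.le_normalizer)

omit [Finite G] in
theorem mem_Nz_sup {τ : Finset (Subgroup G)} {g : G} (h : ∀ Q ∈ τ, g ∈ Nz Q) :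
    g ∈ Nz (τ.sup id) := by
  classical
  induction τ using Finset.induction_on with
  | empty => exact mem_Nz_bot g
  | insert a s _ ih =>
    rw [Finset.sup_insert]
    exact BrPair.inf_Nz_le_Nz_sup _ _ ⟨h a (Finset.mem_insert_self _ _),
      ih fun Q hQ => h Q (Finset.mem_insert_of_mem hQ)⟩

omit [Finite G] in
theorem mem_Nz_lowCh {g : G} (h : ∀ Q ∈ σ, u ∉ Q → g ∈ Nz Q) : g ∈ Nz (lowCh u σ) := by
  classical
  exact mem_Nz_sup fun Q hQ => h Q (Finset.mem_filter.1 hQ).1 (Finset.mem_filter.1 hQ).2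

omit [Finite G] in
theorem topCh_le_Nz (hσ : IsNCh p σ) (hu : u ∈ stCh σ) {Q : Subgroup G} (hQ : Q ∈ σ) :
    topCh u σ ≤ Nz Q :=
  topCh_le (fun R hR => hσ.2.2 Q hQ R hR) (mem_stCh.1 hu Q hQ)

theorem topCh_le_Nz_togCh (hσ : IsNCh p σ) (hu : u ∈ stCh σ) : topCh u σ ≤ Nz (togCh u σ) :=
  fun _ hg => BrPair.inf_Nz_le_Nz_sup _ _
    ⟨mem_Nz_lowCh fun _ hQ _ => topCh_le_Nz hσ hu hQ hg, le_Nz_nclIn _ _ hg⟩

omit [Finite G] in
theorem isPGroup_sup_ch (hσ : IsNCh p σ) : IsPGroup p (σ.sup id : Subgroup G) := by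
  rcases sup_eq_bot_or_mem hσ.1 with h | h
  · rw [h]; exact IsPGroup.of_bot
  · exact (hσ.2.1 _ h).2

omit [Finite G] in
theorem isPGroup_topCh (hσ : IsNCh p σ) (hu : u ∈ stCh σ) (hup : IsPGroup p (Subgroup.zpowers u)) :
    IsPGroup p (topCh u σ) :=
  IsPGroup.to_sup_of_normal_left' (isPGroup_sup_ch hσ) hup
    (Subgroup.zpowers_le_of_mem (mem_Nz_sup (mem_stCh.1 hu)))

omit [Finite G] in
theorem togCh_le (hσ : IsNCh p σ) (hu : u ∈ stCh σ) {Q : Subgroup G} (hQ : Q ∈ σ) (huQ : u ∈ Q) :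
    togCh u σ ≤ Q :=
  sup_le (lowCh_le fun R hR huR => (hσ.1 R hR Q hQ).resolve_right fun h => huR (h huQ))
    (nclIn_le huQ (topCh_le_Nz hσ hu hQ))

open Classical in
/-- toggle. -/
noncomputable def flipCh (u : G) (σ : Finset (Subgroup G)) : Finset (Subgroup G) :=
  if togCh u σ ∈ σ then σ.erase (togCh u σ) else insert (togCh u σ) σ

omit [Finite G] in
theorem mem_flipCh_of_ne {Q : Subgroup G} (h : Q ≠ togCh u σ) : Q ∈ flipCh u σ ↔ Q ∈ σ := by
  classical
  unfold flipCh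
  split_ifs <;> simp [h]

omit [Finite G] in
theorem togCh_mem_flipCh : togCh u σ ∈ flipCh u σ ↔ togCh u σ ∉ σ := by
  classical
  unfold flipCh
  split_ifs with h <;> simp [h]

omit [Finite G] in
theorem mem_or_eq_of_mem_flipCh {Q : Subgroup G} (h : Q ∈ flipCh u σ) :
    Q ∈ σ ∨ Q = togCh u σ := by
  by_cases e : Q = togCh u σ
  · exact Or.inr e
  · exact Or.inl ((mem_flipCh_of_ne e).1 h)

omit [Finite G] in
theorem lowCh_flipCh : lowCh u (flipCh u σ) = lowCh u σ := by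
  apply le_antisymm
  · refine lowCh_le fun Q hQ huQ => le_lowCh ((mem_flipCh_of_ne ?_).1 hQ) huQ
    rintro rfl; exact huQ mem_togCh
  · refine lowCh_le fun Q hQ huQ => le_lowCh ((mem_flipCh_of_ne ?_).2 hQ) huQ
    rintro rfl; exact huQ mem_togCh

theorem topCh_flipCh [Fact p.Prime] (hσ : IsNCh p σ) (hu : u ∈ stCh σ)
    (hup : IsPGroup p (Subgroup.zpowers u)) : topCh u (flipCh u σ) = topCh u σ := by
  have h1 : topCh u (flipCh u σ) ≤ topCh u σ := by
    refine topCh_le (fun Q hQ => ?_) mem_topCh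
    rcases mem_or_eq_of_mem_flipCh hQ with h | rfl
    · exact le_topCh h
    · exact togCh_le_topCh
  refine le_antisymm h1 ?_
  by_cases h : ∃ Q ∈ σ, Q ≠ togCh u σ ∧ u ∈ Q
  · obtain ⟨Q, hQ, hne, huQ⟩ := h
    refine topCh_le (fun R hR => ?_) mem_topCh
    by_cases e : R = togCh u σ
    · rw [e]
      exact (togCh_le hσ hu hQ huQ).trans (le_topCh ((mem_flipCh_of_ne hne).2 hQ))
    · exact le_topCh ((mem_flipCh_of_ne e).2 hR)
  · push Not at h
    refine eq_of_le_sup_nclIn (isPGroup_topCh hσ hu hup) h1 (L := lowCh u σ) ?_ mem_topCh ?_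
    · rw [← lowCh_flipCh]
      exact lowCh_le fun Q hQ _ => le_topCh hQ
    · refine topCh_le (fun R hR => ?_) mem_togCh
      by_cases e : R = togCh u σ
      · exact e.le
      · exact (le_lowCh hR (h R hR e)).trans le_sup_left

theorem togCh_flipCh [Fact p.Prime] (hσ : IsNCh p σ) (hu : u ∈ stCh σ)
    (hup : IsPGroup p (Subgroup.zpowers u)) : togCh u (flipCh u σ) = togCh u σ := by
  rw [togCh, togCh, lowCh_flipCh, topCh_flipCh hσ hu hup]

theorem flipCh_flipCh [Fact p.Prime] (hσ : IsNCh p σ) (hu : u ∈ stCh σ)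
    (hup : IsPGroup p (Subgroup.zpowers u)) : flipCh u (flipCh u σ) = σ := by
  ext Q
  by_cases e : Q = togCh u σ
  · rw [e, ← togCh_flipCh hσ hu hup, togCh_mem_flipCh, togCh_flipCh hσ hu hup, togCh_mem_flipCh,
      not_not]
  · rw [mem_flipCh_of_ne (by rwa [togCh_flipCh hσ hu hup]), mem_flipCh_of_ne e]

theorem isNCh_flipCh (hσ : IsNCh p σ) (hu : u ∈ stCh σ)
    (hup : IsPGroup p (Subgroup.zpowers u)) (hu1 : u ≠ 1) : IsNCh p (flipCh u σ) := by
  have hc : ∀ Q ∈ σ, Q ≤ togCh u σ ∨ togCh u σ ≤ Q := fun Q hQ => by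
    by_cases h : u ∈ Q
    · exact Or.inr (togCh_le hσ hu hQ h)
    · exact Or.inl ((le_lowCh hQ h).trans le_sup_left)
  refine ⟨fun Q hQ R hR => ?_, fun Q hQ => ?_, fun Q hQ R hR => ?_⟩
  · rcases mem_or_eq_of_mem_flipCh hQ with h | rfl <;>
      rcases mem_or_eq_of_mem_flipCh hR with h' | rfl
    · exact hσ.1 Q h R h'
    · exact hc Q h
    · exact (hc R h').symm
    · exact Or.inl le_rfl
  · rcases mem_or_eq_of_mem_flipCh hQ with h | rfl
    · exact hσ.2.1 Q h
    · refine ⟨fun h => hu1 ?_, (isPGroup_topCh hσ hu hup).to_le togCh_le_topCh⟩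
      have := mem_togCh (u := u) (σ := σ)
      rwa [h, Subgroup.mem_bot] at this
  · have hR' : R ≤ topCh u σ := by
      rcases mem_or_eq_of_mem_flipCh hR with h' | rfl
      · exact le_topCh h'
      · exact togCh_le_topCh
    rcases mem_or_eq_of_mem_flipCh hQ with h | rfl
    · exact hR'.trans (topCh_le_Nz hσ hu h)
    · exact hR'.trans (topCh_le_Nz_togCh hσ hu)

theorem stCh_inf_le_flipCh : stCh σ ⊓ Cu u ≤ stCh (flipCh u σ) := by
  rintro g ⟨hg, hgu⟩
  refine mem_stCh.2 fun Q hQ => ?_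
  rcases mem_or_eq_of_mem_flipCh hQ with h | rfl
  · exact mem_stCh.1 hg Q h
  · refine BrPair.inf_Nz_le_Nz_sup _ _ ⟨mem_Nz_lowCh fun R hR _ => mem_stCh.1 hg R hR,
      mem_Nz_nclIn_of_comm (BrPair.inf_Nz_le_Nz_sup _ _ ⟨mem_Nz_sup (mem_stCh.1 hg), ?_⟩) hgu⟩
    apply BrPair.Cz_le_Nz
    rw [Cz_zpowers]; exact hgu

theorem stCh_flipCh_inf [Fact p.Prime] (hσ : IsNCh p σ) (hu : u ∈ stCh σ)
    (hup : IsPGroup p (Subgroup.zpowers u)) : stCh (flipCh u σ) ⊓ Cu u = stCh σ ⊓ Cu u := by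
  apply le_antisymm
  · refine le_inf ?_ inf_le_right
    conv_rhs => rw [← flipCh_flipCh hσ hu hup]
    exact stCh_inf_le_flipCh
  · exact le_inf stCh_inf_le_flipCh inf_le_right

omit [Finite G] in
theorem neg_one_pow_card_flipCh : (-1 : ℂ) ^ (flipCh u σ).card = -(-1) ^ σ.card := by
  classical
  unfold flipCh
  split_ifs with h
  · conv_rhs => rw [← Finset.card_erase_add_one h, pow_succ]
    ring
  · rw [Finset.card_insert_of_notMem h, pow_succ]; ring

/-- the finite set of normal chains. -/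
noncomputable def nchs (p : ℕ) (G : Type*) [Group G] [Finite G] : Finset (Finset (Subgroup G)) :=
  (Set.toFinite {σ | IsNCh p σ}).toFinset

theorem mem_nchs : σ ∈ nchs p G ↔ IsNCh p σ := by
  rw [nchs, Set.Finite.mem_toFinset]; rfl

open Classical in
theorem sum_nchs_eq_zero [Fact p.Prime] {h : G} (hh : IsPPart p h u) (hu1 : u ≠ 1)
    (F : Subgroup G → Subgroup G → ℂ) :
    ∑ σ ∈ nchs p G, (if h ∈ stCh σ then (-1 : ℂ) ^ σ.card * F (stCh σ ⊓ Cu u) (topCh u σ)
      else 0) = 0 := by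
  have hp : p.Prime := Fact.out
  have hup := isPGroup_zpowers_of_pElt hp (isPPart_pElt hh)
  have hhu : h ∈ Cu u := mem_Cu.2 (isPPart_commute hp hh).eq.symm
  rw [← Finset.sum_filter]
  refine Finset.sum_involution (fun σ _ => flipCh u σ) (fun σ hσ => ?_) (fun σ _ _ e => ?_)
    (fun σ hσ => ?_) (fun σ hσ => ?_)
  · obtain ⟨h1, h2⟩ := Finset.mem_filter.1 hσ
    have hu := isPPart_mem hp hh h2
    rw [neg_one_pow_card_flipCh, stCh_flipCh_inf (mem_nchs.1 h1) hu hup,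
      topCh_flipCh (mem_nchs.1 h1) hu hup]
    ring
  · have := togCh_mem_flipCh (u := u) (σ := σ)
    rw [e] at this
    exact iff_not_self this
  · obtain ⟨h1, h2⟩ := Finset.mem_filter.1 hσ
    have hu := isPPart_mem hp hh h2
    exact Finset.mem_filter.2 ⟨mem_nchs.2 (isNCh_flipCh (mem_nchs.1 h1) hu hup hu1),
      stCh_inf_le_flipCh ⟨h2, hhu⟩⟩
  · obtain ⟨h1, h2⟩ := Finset.mem_filter.1 hσ
    exact flipCh_flipCh (mem_nchs.1 h1) (isPPart_mem hp hh h2) hup

end Comb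

section Trace

attribute [local implicit_reducible] CfsgLib.Block.K

variable {G : Type*} [Group G] [Fintype G] {p : ℕ} {M : Ideal AlgInt}

/-- a set of characters closed under block equivalence. -/
def BlClosed (M : Ideal AlgInt) (A : Set (IrrCharacter G)) : Prop :=
  ∀ χ ∈ A, ∀ ψ : IrrCharacter G, SameBlock M (χ : G → ℂ) (ψ : G → ℂ) → ψ ∈ A

theorem blockPart_reg_of_closed (hM : IsPModular p M) {A : Set (IrrCharacter G)}
    (hA : BlClosed M A) {χ : IrrCharacter G} (hχ : χ ∈ A) :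
    blockPart A (pRegularPart p (χ : G → ℂ)) = pRegularPart p (χ : G → ℂ) := by
  refine blockPart_eq_self (isClassFunction_pRegularPart (irr_isClassFunction χ)) fun ψ hψ => ?_
  rw [← sectionPart_one_eq hM.1]
  exact classInner_sectionPart_eq_zero hM (fun h => hψ (hA χ hχ ψ h)) 1

theorem blockRank_eq_sum_mm_of_closed (hM : IsPModular p M) {A : Set (IrrCharacter G)}
    (hA : BlClosed M A) : (blockRank p A : ℂ) = ∑ χ ∈ bf A, mm p (χ : G → ℂ) χ := by
  have hT : LinearMap.IsProj (regSpan p A) (regLin p G ∘ₗ partLin A) :=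
    ⟨fun f => by
      rw [LinearMap.comp_apply, regLin_apply]; exact reg_blockPart_mem_regSpan A f,
    fun f hf => by
      rw [LinearMap.comp_apply, regLin_apply, partLin_apply]
      induction hf using Submodule.span_induction with
      | mem f hf =>
        obtain ⟨χ, hχ, rfl⟩ := hf
        rw [blockPart_reg_of_closed hM hA hχ, pRegularPart_idem]
      | zero => rw [blockPart_zero, pRegularPart_zero]
      | add f g _ _ hf hg => rw [blockPart_add, pRegularPart_add, hf, hg]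
      | smul c f _ hf => rw [blockPart_smul, pRegularPart_smul, hf]⟩
  rw [blockRank_eq, ← hT.trace]
  have : regLin p G ∘ₗ partLin A =
      ∑ χ ∈ bf A, (innerLin (χ : G → ℂ)).smulRight (pRegularPart p (χ : G → ℂ)) := by
    apply LinearMap.ext
    intro f
    rw [LinearMap.comp_apply, regLin_apply, partLin_apply, blockPart_bf, pRegularPart_sum,
      LinearMap.sum_apply]
    exact Finset.sum_congr rfl fun χ _ => pRegularPart_smul _ _
  rw [this, map_sum]
  exact Finset.sum_congr rfl fun χ _ => LinearMap.trace_smulRight _ _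

open Classical in
theorem card_mul_sub_rank (hM : IsPModular p M) {A : Set (IrrCharacter G)} (hA : BlClosed M A) :
    (Nat.card G : ℂ) * ((Nat.card A : ℂ) - (blockRank p A : ℂ)) =
      ∑ h : G, if p ∣ orderOf h then ∑ x : G, blockCoeff A (h⁻¹ * (x * h * x⁻¹)) else 0 := by
  have h1 : ∀ h : G, ∑ x : G, blockCoeff A (h⁻¹ * (x * h * x⁻¹)) =
      ∑ χ ∈ bf A, (χ : G → ℂ) h * conj ((χ : G → ℂ) h) := by
    intro h
    have := sum_conj_blockCoeff A h h
    rw [inv_inv] at this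
    rw [this]
    exact Finset.sum_congr rfl fun χ _ => by rw [char_inv (irr_isCharacter χ)]
  simp only [h1]
  rw [blockRank_eq_sum_mm_of_closed hM hA, card_bf, Finset.card_eq_sum_ones, Nat.cast_sum,
    ← Finset.sum_sub_distrib, Finset.mul_sum]
  have h2 : ∀ h : G, (if p ∣ orderOf h then ∑ χ ∈ bf A, (χ : G → ℂ) h * conj ((χ : G → ℂ) h)
      else 0) = ∑ χ ∈ bf A, if p ∣ orderOf h then (χ : G → ℂ) h * conj ((χ : G → ℂ) h) else 0 := by
    intro h; split_ifs <;> simp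
  simp only [h2]
  rw [Finset.sum_comm]
  refine Finset.sum_congr rfl fun χ _ => ?_
  rw [Nat.cast_one, ← classInner_irr_self χ.2, mm, ← classInner_sub_left, card_mul_classInner]
  refine Finset.sum_congr rfl fun h _ => ?_
  rw [Pi.sub_apply, pRegularPart_eq_ite]
  split_ifs <;> simp

open Classical in
/-- the trace of conjugation by `h` on `E ℂL`. -/
noncomputable def trc (L : Subgroup G) (E : ℂ[G]) (h : G) : ℂ :=
  ∑ x : G, if x ∈ L then E.coeff (h⁻¹ * (x * h * x⁻¹)) else 0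

open Classical in
theorem trc_eq_sum (L : Subgroup G) (E : ℂ[G]) (h : G) :
    trc L E h = ∑ x : L, E.coeff (h⁻¹ * (x * h * (x : G)⁻¹)) := by
  rw [trc, ← Finset.sum_filter]
  exact Finset.sum_subtype _ (fun x => by simp) _

open Classical in
/-- the number of elements conjugating `h` to the argument. -/
noncomputable def cntConj {X : Type*} [Group X] [Fintype X] (h : X) : X → ℂ :=
  fun g : X => ∑ x : X, if x * h * x⁻¹ = g then (1 : ℂ) else 0

open Classical in
theorem trc_eq_chiA (L : Subgroup G) (E : ℂ[G]) (h : L) :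
    trc L E h = chiA (cntConj h) (single h 1 * res L.subtype E) := by
  rw [trc_eq_sum, chiA_single_mul]
  simp only [cntConj, Finset.mul_sum]
  rw [Finset.sum_comm]
  refine Finset.sum_congr rfl fun x _ => ?_
  rw [Finset.sum_eq_single (h⁻¹ * (x * h * x⁻¹))]
  · rw [if_pos (by group), mul_one]; rfl
  · intro y _ hy
    rw [if_neg (fun e => hy (by rw [e]; group)), mul_zero]
  · intro h; exact (h (Finset.mem_univ _)).elim

open Classical in
theorem isClassFunction_cntConj {X : Type*} [Group X] [Fintype X] (h : X) :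
    IsClassFunction X (cntConj h) := by
  intro g c
  simp only [cntConj]
  rw [← Equiv.sum_comp (Equiv.mulLeft c)]
  refine Finset.sum_congr rfl fun x _ => if_congr ?_ rfl rfl
  simp only [Equiv.coe_mulLeft]
  constructor
  · intro e
    calc x * h * x⁻¹ = c⁻¹ * (c * x * h * (c * x)⁻¹) * c := by group
      _ = g := by rw [e]; group
  · intro e; rw [← e]; group

theorem trc_eq_of_br (hM : IsPModular p M) {L : Subgroup G} {h u : G} (hh : h ∈ L)
    (hu : IsPPart p h u) {E E' : ℂ[G]} (hE : Supp L E) (hEO : E ∈ OG hM G)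
    (hEi : IsIdempotentElem E) (hEf : Fixed (Subgroup.zpowers h) E) (hE' : Supp L E')
    (hEO' : E' ∈ OG hM G) (hEi' : IsIdempotentElem E') (hEf' : Fixed (Subgroup.zpowers h) E')
    (hb : br (Subgroup.zpowers u) (redA hM E) = br (Subgroup.zpowers u) (redA hM E')) :
    trc L E h = trc L E' h := by
  classical
  have huL : u ∈ L := isPPart_mem hM.1 hu hh
  have hu' : IsPPart p (⟨h, hh⟩ : L) ⟨u, huL⟩ := isPPart_subtype hM.1 hu
  have hf : ∀ {a : ℂ[G]}, Fixed (Subgroup.zpowers h) a →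
      Fixed (Subgroup.zpowers (⟨h, hh⟩ : L)) (res L.subtype a) := by
    intro a ha
    rw [fixed_zpowers_iff]
    refine BrPair.ext' fun x => ?_
    rw [BrPair.coeff_cj, BrPair.coeff_res, BrPair.coeff_res]
    exact ha.coeff_conj' (Subgroup.mem_zpowers h) x
  have hr : L.subtype.range = L := Subgroup.range_subtype L
  refine (trc_eq_chiA L E ⟨h, hh⟩).trans (Eq.trans ?_ (trc_eq_chiA L E' ⟨h, hh⟩).symm)
  refine chiA_eq_of_br hM (isClassFunction_cntConj _) hu' (BrPair.res_mem_OG' hM _ hEO)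
    (BrPair.idem_res L.subtype_injective (by rwa [hr]) hEi) (hf hEf) (BrPair.res_mem_OG' hM _ hEO')
    (BrPair.idem_res L.subtype_injective (by rwa [hr]) hEi') (hf hEf') ?_
  refine BrPair.ext' fun x => ?_
  by_cases hx : x ∈ Cz (Subgroup.zpowers (⟨u, huL⟩ : L))
  · have hx' : (x : G) ∈ Cz (Subgroup.zpowers u) :=
      mem_Cz_zpowers.2 (congrArg Subtype.val (mem_Cz_zpowers.1 hx))
    have e := congrArg (fun a : (K hM)[G] => a.coeff (x : G)) hb
    have e1 := BrPair.coeff_trunc_of_mem (redA hM E) hx'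
    have e2 := BrPair.coeff_trunc_of_mem (redA hM E') hx'
    rw [BrPair.coeff_trunc_of_mem _ hx, BrPair.coeff_trunc_of_mem _ hx, BrPair.redA_res,
      BrPair.redA_res, BrPair.coeff_res, BrPair.coeff_res]
    exact e1.symm.trans (e.trans e2)
  · rw [BrPair.coeff_trunc_of_not_mem _ hx, BrPair.coeff_trunc_of_not_mem _ hx]

theorem trc_eq_inf (hM : IsPModular p M) {L : Subgroup G} {h u : G} (hh : h ∈ L)
    (hu : IsPPart p h u) {E : ℂ[G]} (hE : E ∈ fixSub ℂ (L ⊓ Cu u) (L ⊓ Cu u)) (hEO : E ∈ OG hM G)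
    (hEi : IsIdempotentElem E) : trc L E h = trc (L ⊓ Cu u) E h := by
  classical
  set C := L ⊓ Cu u with hC
  have huC : u ∈ C := ⟨isPPart_mem hM.1 hu hh, mem_Cu.2 rfl⟩
  have hhC : h ∈ C := ⟨hh, mem_Cu.2 (isPPart_commute hM.1 hu).eq.symm⟩
  have key : ∀ x : G, x ∉ Cu u →
      ∑ c : C, E.coeff (h⁻¹ * (c * x * h * ((c : G) * x)⁻¹)) = 0 := by
    intro x hx
    by_cases hg : x * h * x⁻¹ ∈ C
    · have hv := isPPart_conj hu x
      have hvC : x * u * x⁻¹ ∈ C := isPPart_mem hM.1 hv hg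
      have h1 : IsPPart p (⟨h, hhC⟩ : C)⁻¹ (⟨u, huC⟩ : C)⁻¹ :=
        isPPart_inv (isPPart_subtype hM.1 hu)
      have h2 : IsPPart p (⟨_, hg⟩ : C)⁻¹ (⟨_, hvC⟩ : C)⁻¹ :=
        isPPart_inv (isPPart_subtype hM.1 hv)
      have h3 := sum_coeff_idem_eq_zero hM (BrPair.res_mem_OG' hM C.subtype hEO)
        (BrPair.Fixed.res_subtype_mem_Z hE.2)
        (BrPair.idem_res C.subtype_injective (by rw [Subgroup.range_subtype]; exact hE.1) hEi)
        h1 h2 (fun hc => hx (by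
          obtain ⟨c, hc⟩ := isConj_iff.1 hc
          have e := congrArg Subtype.val hc
          have e2 := mem_Cu.1 c.2.2
          simp only [Subgroup.coe_mul, Subgroup.coe_inv] at e
          have e3 : x * u * x⁻¹ = u := by
            calc x * u * x⁻¹ = ((x * u * x⁻¹)⁻¹)⁻¹ := by group
              _ = c * u * (c : G)⁻¹ := by rw [← e]; group
              _ = u := by rw [← e2]; group
          rw [mem_Cu]
          calc u * x = (x * u * x⁻¹) * x := by rw [e3]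
            _ = x * u := by group))
      rw [← h3]
      refine Finset.sum_congr rfl fun c _ => ?_
      rw [BrPair.coeff_res]
      congr 1
      simp only [Subgroup.coe_subtype, Subgroup.coe_mul, Subgroup.coe_inv]
      group
    · refine Finset.sum_eq_zero fun c _ => hE.1 _ fun hm => hg ?_
      have := C.mul_mem (C.mul_mem (C.inv_mem c.2) (C.mul_mem hhC hm)) c.2
      convert this using 1
      group
  have h2 : ∑ x : G, (if x ∈ L ∧ x ∉ Cu u then E.coeff (h⁻¹ * (x * h * x⁻¹)) else 0) = 0 := by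
    have h3 : ∀ c : C, ∑ x : G, (if x ∈ L ∧ x ∉ Cu u then E.coeff (h⁻¹ * (x * h * x⁻¹)) else 0) =
        ∑ x : G, (if x ∈ L ∧ x ∉ Cu u then
          E.coeff (h⁻¹ * (c * x * h * ((c : G) * x)⁻¹)) else 0) := by
      intro c
      rw [← Equiv.sum_comp (Equiv.mulLeft (c : G))]
      refine Finset.sum_congr rfl fun x _ => if_congr ?_ rfl rfl
      simp only [Equiv.coe_mulLeft]
      rw [L.mul_mem_cancel_left c.2.1, (Cu u).mul_mem_cancel_left c.2.2]
    have h4 : (Fintype.card C : ℂ) * ∑ x : G,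
        (if x ∈ L ∧ x ∉ Cu u then E.coeff (h⁻¹ * (x * h * x⁻¹)) else 0) = 0 := by
      rw [← nsmul_eq_mul, ← Finset.card_univ, ← Finset.sum_const, Finset.sum_congr rfl
        fun c _ => h3 c, Finset.sum_comm]
      refine Finset.sum_eq_zero fun x _ => ?_
      split_ifs with hx
      · exact key x hx.2
      · exact Finset.sum_const_zero
    exact (mul_eq_zero.1 h4).resolve_left (Nat.cast_ne_zero.2 Fintype.card_ne_zero)
  rw [trc, trc, ← sub_eq_zero, ← Finset.sum_sub_distrib]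
  refine Eq.trans (Finset.sum_congr rfl fun x _ => ?_) h2
  by_cases h1 : x ∈ L <;> by_cases h3 : x ∈ Cu u <;> simp [hC, h1, h3]

/-- `E` is the central idempotent of `O L` lifting `z`. -/
def CLift (hM : IsPModular p M) (L : Subgroup G) (z : (K hM)[G]) (E : ℂ[G]) : Prop :=
  E ∈ fixSub ℂ L L ∧ E ∈ OG hM G ∧ IsIdempotentElem E ∧ redA hM E = z

open Classical in
/-- the trace attached to a central idempotent of `k L`. -/
noncomputable def trk (hM : IsPModular p M) (L : Subgroup G) (z : (K hM)[G]) (h : G) : ℂ :=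
  if H : ∃ E, CLift hM L z E then trc L H.choose h else 0

theorem trk_eq {hM : IsPModular p M} {L : Subgroup G} {z : (K hM)[G]} {E : ℂ[G]}
    (hE : CLift hM L z E) (h : G) : trk hM L z h = trc L E h := by
  have H : ∃ E, CLift hM L z E := ⟨E, hE⟩
  have h1 := H.choose_spec
  rw [trk, dif_pos H, BrPair.idem_eq_of_redA hM h1.1 hE.1 h1.2.1 hE.2.1 h1.2.2.1 hE.2.2.1
    (h1.2.2.2.trans hE.2.2.2.symm)]

theorem trk_br [Fact p.Prime] (hM : IsPModular p M) {L : Subgroup G} {z : (K hM)[G]}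
    (hz : z ∈ fixSub (K hM) L L) (hi : IsIdempotentElem z) {h u : G} (hh : h ∈ L)
    (hu : IsPPart p h u) :
    trk hM L z h = trk hM (L ⊓ Cu u) (br (Subgroup.zpowers u) z) h := by
  have huL : u ∈ L := isPPart_mem hM.1 hu hh
  have hhC : h ∈ L ⊓ Cu u := ⟨hh, mem_Cu.2 (isPPart_commute hM.1 hu).eq.symm⟩
  have hup := isPGroup_zpowers_of_pElt hM.1 (isPPart_pElt hu)
  obtain ⟨E, hE⟩ := BrPair.exists_lift_center hM hz hi
  have hz' : br (Subgroup.zpowers u) z ∈ fixSub (K hM) (L ⊓ Cu u) (L ⊓ Cu u) := by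
    have := BrPair.br_mem_fixSub (Q := Subgroup.zpowers u) (L := L ⊓ Cu u) hz inf_le_left
      (inf_le_right.trans (by rw [Cu, ← Cz_zpowers]; exact BrPair.Cz_le_Nz _))
    rwa [Cz_zpowers] at this
  obtain ⟨E', hE'⟩ := BrPair.exists_lift_center hM hz'
    (BrPair.isIdempotentElem_br hup (hz.2.mono (Subgroup.zpowers_le_of_mem huL)) hi)
  rw [trk_eq hE, trk_eq hE', ← trc_eq_inf hM hh hu hE'.1 hE'.2.1 hE'.2.2.1]
  refine trc_eq_of_br hM hh hu hE.1.1 hE.2.1 hE.2.2.1
    (hE.1.2.mono (Subgroup.zpowers_le_of_mem hh)) (hE'.1.1.mono inf_le_left) hE'.2.1 hE'.2.2.1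
    (hE'.1.2.mono (Subgroup.zpowers_le_of_mem hhC)) ?_
  rw [hE.2.2.2, hE'.2.2.2, BrPair.br_br_of_le le_rfl]

open Classical in
theorem card_mul_sub_rank_top (hM : IsPModular p M) {B : Set (IrrCharacter G)}
    (hB : IsPBlock M B) : (Nat.card G : ℂ) * ((Nat.card B : ℂ) - (blockRank p B : ℂ)) =
      ∑ h : G, if p ∣ orderOf h then trk hM ⊤ (eB hM B) h else 0 := by
  rw [card_mul_sub_rank hM (fun χ hχ ψ h => mem_of_sameBlock hM hB hχ h)]
  refine Finset.sum_congr rfl fun h _ => if_congr Iff.rfl ?_ rfl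
  rw [trk_eq (z := eB hM B) (E := blockIdem B) ⟨BrPair.blockIdem_mem_fixSub B, blockIdem_mem_OG hM hB,
    blockIdem_mul_self B, rfl⟩, trc]
  exact Finset.sum_congr rfl fun x _ => by rw [if_pos (Subgroup.mem_top _), coeff_blockIdem]

open Classical in
theorem card_mul_sub_rank_sub (hM : IsPModular p M) {L : Subgroup G} {A : Set (IrrCharacter L)}
    (hA : BlClosed M A) : (Nat.card L : ℂ) * ((Nat.card A : ℂ) - (blockRank p A : ℂ)) =
      ∑ h : G, if h ∈ L then (if p ∣ orderOf h then trk hM L (sB hM L A) h else 0) else 0 := by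
  rw [card_mul_sub_rank hM hA, ← Finset.sum_filter (fun h => h ∈ L),
    Finset.sum_subtype (p := fun h => h ∈ L) _ (fun x => by simp)]
  refine Finset.sum_congr rfl fun h _ => if_congr (by rw [Subgroup.orderOf_coe]) ?_ rfl
  rw [trk_eq (E := cB L A) ⟨BrPair.cB_mem L A, BrPair.emb_mem_OG hM L.subtype_injective
    (blockIdem_mem_OG_of_closed hM hA), BrPair.idem_cB L A, BrPair.redA_cB hM L A⟩, trc_eq_sum]
  refine Finset.sum_congr rfl fun x _ => ?_
  rw [← BrPair.coeff_cB_coe]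
  rfl

omit [Fintype G] in
theorem closed_induced (hM : IsPModular p M) (L : Subgroup G) (b : Set (IrrCharacter G)) :
    BlClosed M {ψ : IrrCharacter L | ∃ β : Set (IrrCharacter L), ψ ∈ β ∧
      IsInducedBlock M L β b} := by
  rintro χ ⟨β, hχ, hβ⟩ ψ h
  exact ⟨β, mem_of_sameBlock hM hβ.1 hχ h, hβ⟩

theorem sB_induced [Fact p.Prime] (hM : IsPModular p M) {L T : Subgroup G} (hT : IsPGroup p T)
    (hTL : T ≤ L) (hC : Cz T ≤ L) (hN : L ≤ Nz T) {b : Set (IrrCharacter G)}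
    (hb : IsPBlock M b) :
    sB hM L {ψ : IrrCharacter L | ∃ β : Set (IrrCharacter L), ψ ∈ β ∧ IsInducedBlock M L β b} =
      br T (eB hM b) := by
  classical
  set A := {ψ : IrrCharacter L | ∃ β : Set (IrrCharacter L), ψ ∈ β ∧ IsInducedBlock M L β b}
  have hA : blockIdem A ∈ OG hM L := blockIdem_mem_OG_of_closed hM (closed_induced hM L b)
  have hcO : cB L A ∈ OG hM G := BrPair.emb_mem_OG hM L.subtype_injective hA
  have hAi : IsIdempotentElem (eB hM A) := by
    rw [IsIdempotentElem, eB, ← redA_mul hM hA hA, blockIdem_mul_self]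
  have hB := BrPair.isBlk_eB hM hb
  have h1 : br T (eB hM b) ∈ fixSub (K hM) L L :=
    BrPair.fixSub_mono le_rfl (inf_le_right.trans hC) (BrPair.br_mem_fixSub hB.mem le_top hN)
  have h2 : IsIdempotentElem (br T (eB hM b)) :=
    BrPair.isIdempotentElem_br hT (hB.mem.2.mono le_top) hB.idem
  have hcom : BrPair.IsCom (fixSub (K hM) L L) := BrPair.fixSub_comm le_rfl
  refine BrPair.idem_ext hcom ?_ ?_ h1 h2 fun c hc => ?_
  · rw [← BrPair.redA_cB]; exact BrPair.redA_mem_fixSub hM (BrPair.cB_mem L A)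
  · exact hAi.map _
  obtain ⟨β, hβ, rfl⟩ := BrPair.exists_sB hM (H := L) hc
  obtain ⟨ψ, hψ⟩ := IsPBlock_nonempty hM hβ
  have e1 : sB hM L A * sB hM L β = sB hM L β ↔ ψ ∈ A := by
    rw [sB, sB, ← map_mul, (BrPair.emb_injective L.subtype_injective).eq_iff,
      idem_mul_eB_eq_iff hM hβ hψ (eB_mem_Z hM A) hAi, eB,
      lam_redA hM ψ.2 (blockIdem_mem_Z A) hA, omega_blockIdem]
    split_ifs with h
    · rw [red_one]; exact iff_of_true rfl h
    · rw [red_zero]; exact iff_of_false zero_ne_one h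
  have e2 : ψ ∈ A ↔ IsInducedBlock M L β b :=
    ⟨fun ⟨β', h1, h2⟩ => block_eq_of_mem hM h2.1 hβ h1 hψ ▸ h2, fun h => ⟨β, hψ, h⟩⟩
  rw [e1, e2, BrPair.isInducedBlock_iff hM, BrPair.ind_iff_br_mul le_top
    (inf_le_right.trans hC) hc hB hTL hN hT]
  constructor
  · rintro ⟨-, -, h⟩
    exact hc.mul_eq_of_ne h1 h2 h
  · intro h
    exact ⟨hβ, hb, by rw [h]; exact hc.ne⟩

open Classical in
/-- **Knörr–Robinson**. -/
theorem knorr_robinson [Fact p.Prime] (hM : IsPModular p M) {b : Set (IrrCharacter G)}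
    (hb : IsPBlock M b) :
    (Nat.card G : ℂ) * ((Nat.card b : ℂ) - (blockRank p b : ℂ)) =
      ∑ σ ∈ (nchs p G).erase ∅, (-1 : ℂ) ^ (σ.card - 1) * (Nat.card (stCh σ) : ℂ) *
        ((Nat.card {ψ : IrrCharacter (stCh σ) | ∃ β : Set (IrrCharacter (stCh σ)), ψ ∈ β ∧
          IsInducedBlock M (stCh σ) β b} : ℂ) -
        (blockRank p {ψ : IrrCharacter (stCh σ) | ∃ β : Set (IrrCharacter (stCh σ)), ψ ∈ β ∧
          IsInducedBlock M (stCh σ) β b} : ℂ)) := by
  have hp : p.Prime := Fact.out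
  have hB := BrPair.isBlk_eB hM hb
  have h0 : (∅ : Finset (Subgroup G)) ∈ nchs p G :=
    mem_nchs.2 ⟨by simp, by simp, by simp⟩
  have hst0 : stCh (∅ : Finset (Subgroup G)) = ⊤ := by
    ext g; simp [mem_stCh]
  have hloc : ∀ σ ∈ nchs p G, IsPGroup p (σ.sup id : Subgroup G) ∧ σ.sup id ≤ stCh σ ∧
      Cz (σ.sup id) ≤ stCh σ ∧ stCh σ ≤ Nz (σ.sup id) := by
    intro σ hσ
    have hσ' := mem_nchs.1 hσ
    refine ⟨isPGroup_sup_ch hσ', fun g hg => mem_stCh.2 fun Q hQ => ?_,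
      fun g hg => mem_stCh.2 fun Q hQ => ?_, fun g hg => mem_Nz_sup (mem_stCh.1 hg)⟩
    · exact (Finset.sup_le (f := id) fun R hR => hσ'.2.2 Q hQ R hR) hg
    · exact BrPair.Cz_le_Nz Q (BrPair.Cz_anti (Finset.le_sup (f := id) hQ) hg)
  -- the total alternating sum vanishes
  have htot : ∑ σ ∈ nchs p G, (-1 : ℂ) ^ σ.card * ∑ h : G, (if h ∈ stCh σ then
      (if p ∣ orderOf h then trk hM (stCh σ) (br (σ.sup id) (eB hM b)) h else 0) else 0) = 0 := by
    simp only [Finset.mul_sum]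
    rw [Finset.sum_comm]
    refine Finset.sum_eq_zero fun h _ => ?_
    by_cases hd : p ∣ orderOf h
    swap
    · exact Finset.sum_eq_zero fun σ _ => by simp [hd]
    obtain ⟨u, hu⟩ := exists_isPPart hp h
    have hu1 : u ≠ 1 := by
      rintro rfl
      exact not_dvd_orderOf_of_isPPart_one hu hd
    refine Eq.trans (Finset.sum_congr rfl fun σ hσ => ?_)
      (sum_nchs_eq_zero hu hu1 (fun L T => trk hM L (br T (eB hM b)) h))
    obtain ⟨h1, -, h3, h4⟩ := hloc σ hσ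
    by_cases hh : h ∈ stCh σ
    · rw [if_pos hh, if_pos hd, if_pos hh, trk_br hM
        (BrPair.fixSub_mono le_rfl (inf_le_right.trans h3) (BrPair.br_mem_fixSub hB.mem le_top h4))
        (BrPair.isIdempotentElem_br h1 (hB.mem.2.mono le_top) hB.idem) hh hu, BrPair.br_br,
        topCh, sup_comm]
    · rw [if_neg hh, if_neg hh, mul_zero]
  rw [← Finset.add_sum_erase _ _ h0, hst0, Finset.card_empty, pow_zero, one_mul,
    Finset.sup_empty, BrPair.br_bot] at htot
  simp only [Subgroup.mem_top, if_true] at htot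
  rw [card_mul_sub_rank_top hM hb, eq_neg_of_add_eq_zero_left htot, ← Finset.sum_neg_distrib]
  refine Finset.sum_congr rfl fun σ hσ => ?_
  obtain ⟨hne, hσ'⟩ := Finset.mem_erase.1 hσ
  obtain ⟨h1, h2, h3, h4⟩ := hloc σ hσ'
  rw [mul_assoc, card_mul_sub_rank_sub hM (closed_induced hM _ b), sB_induced hM h1 h2 h3 h4 hb]
  obtain ⟨n, hn⟩ := Nat.exists_eq_succ_of_ne_zero (Finset.card_ne_zero.2
    (Finset.nonempty_iff_ne_empty.2 hne))
  rw [hn, Nat.succ_sub_one, pow_succ]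
  ring

end Trace

end CfsgLib.Block
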